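import Mathlib
set_option autoImplicit false

/-!
The projective line: three distinct points, sharp triple transitivity of `PGL_2`.
-/

namespace CfsgLib.SLn

open Matrix
open scoped LinearAlgebra.Projectivization

variable {F : Type*} [Field F]

/-- Two distinct points have independent representatives. -/
theorem det_ne_zero_of_mk_ne {u v : Fin 2 → F} (hu : u ≠ 0) (hv : v ≠ 0)
    (h : Projectivization.mk F u hu ≠ Projectivization.mk F v hv) :
    !![u 0, v 0; u 1, v 1].det ≠ 0 := by
  intro hd
  obtain ⟨r, hr, hr0⟩ := Matrix.exists_mulVec_eq_zero_iff.2 hd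
  have e0 := congrFun hr0 0
  have e1 := congrFun hr0 1
  simp [Matrix.mulVec, dotProduct, Fin.sum_univ_two] at e0 e1
  apply h
  rw [Projectivization.mk_eq_mk_iff']
  have hr00 : r 0 ≠ 0 := by
    intro h0
    have hr1 : r 1 ≠ 0 := fun h1 => hr (funext (Fin.forall_fin_two.2 ⟨h0, h1⟩))
    simp [h0, hr1] at e0 e1
    exact hv (funext (Fin.forall_fin_two.2 ⟨e0, e1⟩))
  refine ⟨-r 1 / r 0, funext (Fin.forall_fin_two.2 ⟨?_, ?_⟩)⟩
  · simp only [Pi.smul_apply, smul_eq_mul]; field_simp; linear_combination -e0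
  · simp only [Pi.smul_apply, smul_eq_mul]; field_simp; linear_combination -e1

/-- The three standard vectors. -/
def stdVec (F : Type*) [Field F] : Fin 3 → Fin 2 → F :=
  ![![1, 0], ![0, 1], ![1, 1]]

theorem stdVec_ne_zero (i : Fin 3) : stdVec F i ≠ 0 := by
  intro h
  fin_cases i <;>
  · first
      | exact one_ne_zero (α := F) (by simpa [stdVec] using congrFun h 0)
      | exact one_ne_zero (α := F) (by simpa [stdVec] using congrFun h 1)

/-- The three standard points. -/
def stdPoint (F : Type*) [Field F] (i : Fin 3) : ℙ F (Fin 2 → F) :=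
  Projectivization.mk F (stdVec F i) (stdVec_ne_zero i)

/-- Any three distinct points are the image of the standard ones. -/
theorem exists_GL_stdPoint {p : Fin 3 → ℙ F (Fin 2 → F)} (hp : Function.Injective p) :
    ∃ M : GL (Fin 2) F, ∀ i, M • stdPoint F i = p i := by
  have hd := det_ne_zero_of_mk_ne (p 0).rep_nonzero (p 1).rep_nonzero (by
    rw [Projectivization.mk_rep, Projectivization.mk_rep]; exact fun h => absurd (hp h) (by decide))
  set u := (p 0).rep
  set v := (p 1).rep
  set w := (p 2).rep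
  set M0 := !![u 0, v 0; u 1, v 1] with hM0
  obtain ⟨z, hz⟩ : ∃ z, M0 *ᵥ z = w :=
    ⟨M0⁻¹ *ᵥ w, by rw [mulVec_mulVec, mul_nonsing_inv _ (isUnit_iff_ne_zero.2 hd), one_mulVec]⟩
  have ew0 := congrFun hz 0
  have ew1 := congrFun hz 1
  simp [hM0, Matrix.mulVec, dotProduct, Fin.sum_univ_two] at ew0 ew1
  have hne : ∀ (a b : Fin 3) (c : F), a ≠ b → (p a).rep ≠ c • (p b).rep := by
    intro a b c hab he
    apply hab
    apply hp
    rw [← Projectivization.mk_rep (p a), ← Projectivization.mk_rep (p b),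
      Projectivization.mk_eq_mk_iff']
    exact ⟨c, he.symm⟩
  have hz0 : z 0 ≠ 0 := by
    intro h0
    refine hne 2 1 (z 1) (by decide) (funext (Fin.forall_fin_two.2 ⟨?_, ?_⟩))
    · simp only [Pi.smul_apply, smul_eq_mul]; linear_combination -ew0 + u 0 * h0
    · simp only [Pi.smul_apply, smul_eq_mul]; linear_combination -ew1 + u 1 * h0
  have hz1 : z 1 ≠ 0 := by
    intro h0
    refine hne 2 0 (z 0) (by decide) (funext (Fin.forall_fin_two.2 ⟨?_, ?_⟩))
    · simp only [Pi.smul_apply, smul_eq_mul]; linear_combination -ew0 + v 0 * h0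
    · simp only [Pi.smul_apply, smul_eq_mul]; linear_combination -ew1 + v 1 * h0
  have hdet : !![z 0 * u 0, z 1 * v 0; z 0 * u 1, z 1 * v 1].det ≠ 0 := by
    have e : !![z 0 * u 0, z 1 * v 0; z 0 * u 1, z 1 * v 1].det = (z 0 * z 1) * M0.det := by
      simp [hM0, Matrix.det_fin_two]; ring
    rw [e]
    exact mul_ne_zero (mul_ne_zero hz0 hz1) hd
  refine ⟨GeneralLinearGroup.mkOfDetNeZero _ hdet, fun i => ?_⟩
  rw [stdPoint, Projectivization.smul_mk, ← Projectivization.mk_rep (p i),
    Projectivization.mk_eq_mk_iff']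
  fin_cases i
  · refine ⟨z 0, funext (Fin.forall_fin_two.2 ⟨?_, ?_⟩)⟩ <;>
      simp [stdVec, u, Units.smul_def, Matrix.mulVec, dotProduct, Fin.sum_univ_two]
  · refine ⟨z 1, funext (Fin.forall_fin_two.2 ⟨?_, ?_⟩)⟩ <;>
      simp [stdVec, v, Units.smul_def, Matrix.mulVec, dotProduct, Fin.sum_univ_two]
  · refine ⟨1, funext (Fin.forall_fin_two.2 ⟨?_, ?_⟩)⟩ <;>
      simp [stdVec, Units.smul_def, Matrix.mulVec, dotProduct, Fin.sum_univ_two]
    · linear_combination -ew0
    · linear_combination -ew1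

/-- A matrix fixing the three standard points is scalar. -/
theorem eq_scalar_of_fix (A : GL (Fin 2) F) (h : ∀ i, A • stdPoint F i = stdPoint F i) :
    ∃ u : Fˣ, A = GeneralLinearGroup.scalar (Fin 2) u := by
  have h' : ∀ i, ∃ a : F, a • stdVec F i = A • stdVec F i := fun i => by
    have := h i
    rw [stdPoint, Projectivization.smul_mk, Projectivization.mk_eq_mk_iff'] at this
    exact this
  choose a ha using h'
  have e00 := congrFun (ha 0) 0
  have e01 := congrFun (ha 0) 1
  have e10 := congrFun (ha 1) 0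
  have e11 := congrFun (ha 1) 1
  have e20 := congrFun (ha 2) 0
  have e21 := congrFun (ha 2) 1
  simp [stdVec, Units.smul_def, Matrix.mulVec, dotProduct, Fin.sum_univ_two]
    at e00 e01 e10 e11 e20 e21
  have hu : a 2 ≠ 0 := by
    intro h2
    have := A.det_ne_zero
    simp [Matrix.det_fin_two, e10.symm, e01.symm, ← e00, ← e11] at this
    apply this.1
    linear_combination e00 - e20 + h2 + e10
  refine ⟨Units.mk0 (a 2) hu, Units.ext (Matrix.ext ?_)⟩
  refine Fin.forall_fin_two.2 ⟨Fin.forall_fin_two.2 ⟨?_, ?_⟩, Fin.forall_fin_two.2 ⟨?_, ?_⟩⟩ <;>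
    simp
  · linear_combination -e20 + e10
  · linear_combination -e10
  · linear_combination -e01
  · linear_combination -e21 + e01

end CfsgLib.SLn
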