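import Cfsg.Agent.SLn.Unipotent
import Cfsg.Agent.Fusion.GenSimple
import Cfsg.Agent.PReduced.Hom
set_option autoImplicit false

/-!
Strongly closed subgroups and generation of the Sylow normaliser in quotients of `SL_n`, `n ≥ 3`,
by their centre, in the defining characteristic.
-/

namespace CfsgLib.SLn.Unip

open Matrix Matrix.SpecialLinearGroup

variable {K : Type*} [Field K] [Finite K] {n : ℕ}

theorem add_entry {u v : SpecialLinearGroup (Fin n) K} (hu : u ∈ upperUni K n) (hv : v ∈ upperUni K n)
    {a b : Fin n} (hab : (b : ℕ) = a + 1) : (u * v).1 a b = u.1 a b + v.1 a b := by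
  show (u.1 * v.1) a b = _
  have hne : a ≠ b := fun h => by rw [h] at hab; omega
  rw [Matrix.mul_apply, Fintype.sum_eq_add a b hne, hu.2 a, hv.2 b, one_mul, mul_one, add_comm]
  rintro k ⟨hka, hkb⟩
  by_cases hk : k < a
  · rw [hu.1 a k hk, zero_mul]
  · have : b < k := by
      have h1 : (k : ℕ) ≠ a := fun h => hka (Fin.ext h)
      have h2 : (k : ℕ) ≠ b := fun h => hkb (Fin.ext h)
      rw [Fin.lt_def] at hk ⊢; omega
    rw [hv.1 k b this, mul_zero]

/-- The unipotent radical of the minimal parabolic attached to consecutive indices. -/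
def rad (a b : Fin n) (hab : (b : ℕ) = a + 1) : Subgroup (SpecialLinearGroup (Fin n) K) where
  carrier := {u | u ∈ upperUni K n ∧ u.1 a b = 0}
  one_mem' := ⟨one_mem _, by
    show (1 : Matrix (Fin n) (Fin n) K) a b = 0
    exact Matrix.one_apply_ne (fun h => by rw [h] at hab; omega)⟩
  mul_mem' := fun {u v} hu hv => ⟨mul_mem hu.1 hv.1, by rw [add_entry hu.1 hv.1 hab, hu.2, hv.2, add_zero]⟩
  inv_mem' := fun {u} hu => ⟨inv_mem hu.1, by
    have h := add_entry hu.1 (inv_mem hu.1) hab
    rw [mul_inv_cancel, hu.2, zero_add] at h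
    rw [← h]
    show (1 : Matrix (Fin n) (Fin n) K) a b = 0
    exact Matrix.one_apply_ne (fun h => by rw [h] at hab; omega)⟩

theorem rad_le (a b : Fin n) (hab : (b : ℕ) = a + 1) : rad (K := K) a b hab ≤ upperUni K n :=
  fun _ h => h.1

theorem rad_conj_uni {a b : Fin n} {hab : (b : ℕ) = a + 1} {u r : SpecialLinearGroup (Fin n) K}
    (hu : u ∈ upperUni K n) (hr : r ∈ rad a b hab) : u * r * u⁻¹ ∈ rad a b hab := by
  have hy : u * r * u⁻¹ ∈ upperUni K n := mul_mem (mul_mem hu hr.1) (inv_mem hu)
  refine ⟨hy, ?_⟩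
  have h1 := add_entry hy hu hab
  rw [inv_mul_cancel_right, add_entry hu hr.1 hab, hr.2, add_zero] at h1
  exact right_eq_add.mp h1

theorem rad_conj_lower {a b : Fin n} {hab : (b : ℕ) = a + 1} (hne : b ≠ a) (c : K)
    {r : SpecialLinearGroup (Fin n) K} (hr : r ∈ rad a b hab) :
    transvection hne c * r * (transvection hne c)⁻¹ ∈ rad a b hab := by
  have hval : ∀ i j, (transvection hne c * r * (transvection hne c)⁻¹).1 i j =
      r.1 i j + (if i = b then c * r.1 a j else 0) - (if j = a then c * r.1 i b else 0) := by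
    intro i j
    rw [transvection_inv]
    show ((transvection hne c * r).1 * (transvection hne (-c)).1) i j = _
    rw [transvection_coe, Matrix.mul_add, Matrix.mul_one, Matrix.add_apply]
    rw [show (transvection hne c * r).1 i j = _ from transvection_mul_apply hne c r i j]
    by_cases hj : j = a
    · subst hj
      rw [if_pos rfl, Matrix.mul_single_apply_same,
        show (transvection hne c * r).1 i b = _ from transvection_mul_apply hne c r i b, hr.2]
      simp only [mul_zero, ite_self, add_zero]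
      ring
    · rw [if_neg hj, Matrix.mul_single_apply_of_ne _ _ _ _ _ hj, sub_zero, add_zero]
  have haa := hr.1.2 a
  have hbb := hr.1.2 b
  refine ⟨⟨fun i j hji => ?_, fun i => ?_⟩, ?_⟩
  · show (transvection hne c * r * (transvection hne c)⁻¹).1 i j = 0
    rw [hval, hr.1.1 i j hji, zero_add]
    by_cases hib : i = b
    · subst hib
      rw [if_pos rfl]
      by_cases hja : j = a
      · subst hja; rw [if_pos rfl, haa, hbb, sub_self]
      · rw [if_neg hja, sub_zero, hr.1.1 a j ?_, mul_zero]
        have h1 : (j : ℕ) ≠ a := fun h => hja (Fin.ext h)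
        rw [Fin.lt_def] at hji ⊢; omega
    · rw [if_neg hib, zero_sub, neg_eq_zero]
      by_cases hja : j = a
      · subst hja
        rw [if_pos rfl, hr.1.1 i b ?_, mul_zero]
        have h1 : (i : ℕ) ≠ b := fun h => hib (Fin.ext h)
        rw [Fin.lt_def] at hji ⊢; omega
      · rw [if_neg hja]
  · show (transvection hne c * r * (transvection hne c)⁻¹).1 i i = 1
    rw [hval, hr.1.2 i]
    by_cases hib : i = b
    · subst hib; rw [if_pos rfl, if_neg hne, hr.2, mul_zero, add_zero, sub_zero]
    · rw [if_neg hib, add_zero]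
      by_cases hia : i = a
      · subst hia; rw [if_pos rfl, hr.2, mul_zero, sub_zero]
      · rw [if_neg hia, sub_zero]
  · show (transvection hne c * r * (transvection hne c)⁻¹).1 a b = 0
    rw [hval, if_neg (Ne.symm hne), if_neg hne, hr.2, add_zero, sub_zero]

theorem commute_transvection {a b : Fin n} (hab : a ≠ b) {c : K} (hc : c ≠ 0)
    {g : SpecialLinearGroup (Fin n) K} (h : g * transvection hab c = transvection hab c * g) :
    (∀ x, x ≠ a → g.1 x a = 0) ∧ (∀ y, y ≠ b → g.1 b y = 0) ∧ g.1 a a = g.1 b b := by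
  have h' : ∀ i j, (g.1 * (transvection hab c).1) i j = g.1 i j + if i = a then c * g.1 b j else 0 := by
    intro i j
    rw [← transvection_mul_apply hab c g i j, ← h]
    rfl
  have hl : ∀ x, (g.1 * (transvection hab c).1) x b = g.1 x b + g.1 x a * c := fun x => by
    rw [transvection_coe, Matrix.mul_add, Matrix.mul_one, Matrix.add_apply, Matrix.mul_single_apply_same]
  refine ⟨fun x hx => ?_, fun y hy => ?_, ?_⟩
  · have := h' x b
    rw [hl, if_neg hx, add_right_inj] at this
    exact (mul_eq_zero.mp this).resolve_right hc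
  · have := h' a y
    rw [transvection_coe, Matrix.mul_add, Matrix.mul_one, Matrix.add_apply,
      Matrix.mul_single_apply_of_ne _ _ _ _ _ hy, if_pos rfl, add_right_inj] at this
    exact (mul_eq_zero.mp this.symm).resolve_left hc
  · have := h' a b
    rw [hl, if_pos rfl, add_right_inj, mul_comm c] at this
    exact mul_right_cancel₀ hc this

/-- Conjugacy of transvections, `n ≥ 3`. -/
theorem exists_conj_transvection (hn : 3 ≤ n) {a b a' b' : Fin n} (hab : a ≠ b) (hab' : a' ≠ b')
    {c d : K} (hc : c ≠ 0) (hd : d ≠ 0) :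
    ∃ g : SpecialLinearGroup (Fin n) K, g * transvection hab c * g⁻¹ = transvection hab' d := by
  classical
  obtain ⟨σ, hσa, hσb⟩ : ∃ σ : Equiv.Perm (Fin n), σ a = a' ∧ σ b = b' := by
    refine ⟨Equiv.swap (Equiv.swap a a' b) b' * Equiv.swap a a', ?_, ?_⟩
    · rw [Equiv.Perm.mul_apply, Equiv.swap_apply_left, Equiv.swap_apply_of_ne_of_ne ?_ hab']
      intro h
      exact hab ((Equiv.swap a a').injective ((Equiv.swap_apply_left a a').trans h))
    · rw [Equiv.Perm.mul_apply, Equiv.swap_apply_left]
  obtain ⟨m, hma, hmb⟩ : ∃ m : Fin n, m ≠ a ∧ m ≠ b := by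
    by_contra hcon
    push Not at hcon
    have hsub : (Finset.univ : Finset (Fin n)) ⊆ {a, b} := fun m _ => by
      by_cases h : m = a
      · simp [h]
      · simp [hcon m h]
    have h1 := Finset.card_le_card hsub
    rw [Finset.card_univ, Fintype.card_fin, Finset.card_pair hab] at h1
    omega
  set s : K := ((Equiv.Perm.sign σ⁻¹ : ℤ) : K) with hs
  have hs0 : s ≠ 0 := by
    rw [hs]; rcases Int.units_eq_one_or (Equiv.Perm.sign σ⁻¹) with h | h <;> rw [h] <;> simp
  set w : Fin n → K := fun j => if j = a then d else if j = b then c else if j = m then s⁻¹ * d⁻¹ * c⁻¹ else 1 with hw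
  have hwa : w a = d := by simp [hw]
  have hwb : w b = c := by simp [hw, hab.symm]
  have hdet : (σ⁻¹.permMatrix K * Matrix.diagonal w).det = 1 := by
    rw [Matrix.det_mul, Matrix.det_permutation, Matrix.det_diagonal]
    have hprod : ∏ j, w j = d * c * (s⁻¹ * d⁻¹ * c⁻¹) := by
      rw [← Finset.prod_subset (Finset.subset_univ ({a, b, m} : Finset (Fin n))) (fun x _ hx => ?_)]
      · rw [Finset.prod_insert (by simp [hab, hma.symm]), Finset.prod_insert (by simp [hmb.symm]),
          Finset.prod_singleton, hwa, hwb]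
        simp [hw, hma, hmb, mul_assoc]
      · simp only [Finset.mem_insert, Finset.mem_singleton, not_or] at hx
        simp [hw, hx.1, hx.2.1, hx.2.2]
    rw [hprod, ← hs]
    field_simp
  refine ⟨⟨_, hdet⟩, mul_inv_eq_iff_eq_mul.mpr (Subtype.ext (Matrix.ext fun i j => ?_))⟩
  show ((σ⁻¹.permMatrix K * Matrix.diagonal w) * (transvection hab c).1) i j =
    ((transvection hab' d).1 * (σ⁻¹.permMatrix K * Matrix.diagonal w)) i j
  have hM : ∀ i j, (σ⁻¹.permMatrix K * Matrix.diagonal w) i j = if i = σ j then w j else 0 := by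
    intro i j
    rw [Matrix.mul_diagonal]
    simp [Equiv.Perm.permMatrix, PEquiv.toMatrix_apply, Equiv.symm_apply_eq]
  rw [transvection_coe, transvection_coe, Matrix.mul_add, Matrix.mul_one, Matrix.add_mul, Matrix.one_mul,
    Matrix.add_apply, Matrix.add_apply, add_right_inj]
  by_cases hj : j = b
  · subst hj
    rw [Matrix.mul_single_apply_same, hM, hσa]
    by_cases hi : i = a'
    · subst hi
      rw [Matrix.single_mul_apply_same, hM, if_pos rfl, if_pos hσb.symm, hwa, hwb, mul_comm]
    · rw [Matrix.single_mul_apply_of_ne _ _ _ _ _ hi, if_neg hi, zero_mul]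
  · rw [Matrix.mul_single_apply_of_ne _ _ _ _ _ hj]
    by_cases hi : i = a'
    · subst hi
      rw [Matrix.single_mul_apply_same, hM, if_neg (fun h => hj (σ.injective (h.symm.trans hσb.symm))), mul_zero]
    · rw [Matrix.single_mul_apply_of_ne _ _ _ _ _ hi]

theorem transvection_mem_rad {a b : Fin n} {hab : (b : ℕ) = a + 1} {x y : Fin n} (hxy : x < y)
    (hne : ¬ (x = a ∧ y = b)) (c : K) : transvection hxy.ne c ∈ rad a b hab := by
  refine ⟨transvection_mem hxy c, ?_⟩
  rw [transvection_coe, Matrix.add_apply, Matrix.one_apply_ne (fun h => by rw [h] at hab; omega),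
    Matrix.single_apply, if_neg hne, add_zero]

/-- The centraliser of a radical lies in it, up to scalars. -/
theorem centralizer_rad (hn : 3 ≤ n) {a b : Fin n} {hab : (b : ℕ) = a + 1}
    {g : SpecialLinearGroup (Fin n) K} (h : ∀ r ∈ rad a b hab, g * r = r * g) :
    ∃ z ∈ Subgroup.center (SpecialLinearGroup (Fin n) K), z * g ∈ rad a b hab := by
  have key : ∀ x y : Fin n, x < y → ¬ (x = a ∧ y = b) →
      (∀ i, i ≠ x → g.1 i x = 0) ∧ (∀ j, j ≠ y → g.1 y j = 0) ∧ g.1 x x = g.1 y y := fun x y hxy hne =>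
    commute_transvection hxy.ne one_ne_zero (h _ (transvection_mem_rad hxy hne 1))
  obtain ⟨f, hf⟩ : ∃ f : Fin n, (f : ℕ) = 0 := ⟨⟨0, by omega⟩, rfl⟩
  obtain ⟨l, hl⟩ : ∃ l : Fin n, (l : ℕ) = n - 1 := ⟨⟨n - 1, by omega⟩, rfl⟩
  have haltb : (a : ℕ) < b := by omega
  have hfl : f < l := by rw [Fin.lt_def]; omega
  have hflne : ¬ (f = a ∧ l = b) := fun ⟨h1, h2⟩ => by subst h1 h2; omega
  have hoff : ∀ i j : Fin n, i ≠ j → g.1 i j ≠ 0 → i < j ∧ ¬ (i = a ∧ j = b) := by
    intro i j hij hne
    have hcol : j = l ∨ (j = a ∧ b = l) := by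
      by_contra hcon
      push Not at hcon
      have hjl : j < l := by
        have : (j : ℕ) ≠ l := fun h => hcon.1 (Fin.ext h)
        have := j.isLt
        rw [Fin.lt_def]; omega
      exact hne ((key j l hjl fun hh => hcon.2 hh.1 hh.2.symm).1 i hij)
    have hrow : i = f ∨ (i = b ∧ a = f) := by
      by_contra hcon
      push Not at hcon
      have hfi : f < i := by
        have : (i : ℕ) ≠ f := fun h => hcon.1 (Fin.ext h)
        rw [Fin.lt_def]; omega
      exact hne ((key f i hfi fun hh => hcon.2 hh.2 hh.1.symm).2.1 j hij.symm)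
    rcases hcol with rfl | ⟨rfl, rfl⟩ <;> rcases hrow with rfl | ⟨rfl, rfl⟩
    · exact ⟨hfl, hflne⟩
    · refine ⟨by rw [Fin.lt_def]; omega, fun hh => ?_⟩
      rw [hh.1] at hab; omega
    · refine ⟨by rw [Fin.lt_def]; omega, fun hh => ?_⟩
      exact absurd hh.2 (fun h => by rw [h] at hab; omega)
    · omega
  have hdiag : ∀ i : Fin n, g.1 i i = g.1 f f := by
    intro i
    have hfl' : g.1 f f = g.1 l l := (key f l hfl hflne).2.2
    rcases eq_or_ne i f with rfl | hif
    · rfl
    have h1 : (i : ℕ) ≠ f := fun h => hif (Fin.ext h)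
    by_cases hc : f = a ∧ i = b
    · have hil : i < l := by
        rw [Fin.lt_def]
        have : (i : ℕ) = 1 := by rw [hc.2, hab, ← hc.1, hf]
        omega
      rw [(key i l hil (fun hh => by rw [hh.1] at hc; exact absurd (congrArg Fin.val hc.2) (by omega))).2.2, hfl']
    · exact ((key f i (by rw [Fin.lt_def]; omega) hc).2.2).symm
  have hup : IsUpper g := fun i j hji => by
    by_contra hne
    exact absurd (hoff i j hji.ne' hne).1 (lt_asymm hji)
  have hdet : g.1 f f ^ n = 1 := by
    have := g.2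
    rw [Matrix.det_of_isUpperTriangular (fun i j hij => hup i j hij),
      Finset.prod_congr rfl (fun i _ => hdiag i), Finset.prod_const, Finset.card_univ, Fintype.card_fin] at this
    exact this
  have hc0 : g.1 f f ≠ 0 := fun h0 => by rw [h0, zero_pow (by omega)] at hdet; exact zero_ne_one hdet
  let z : SpecialLinearGroup (Fin n) K := ⟨(g.1 f f)⁻¹ • (1 : Matrix (Fin n) (Fin n) K), by
    rw [Matrix.det_smul, Matrix.det_one, mul_one, Fintype.card_fin, inv_pow, hdet, inv_one]⟩
  have hz : ∀ i j, (z * g).1 i j = (g.1 f f)⁻¹ * g.1 i j := fun i j => by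
    show (((g.1 f f)⁻¹ • (1 : Matrix (Fin n) (Fin n) K)) * g.1) i j = _
    rw [Matrix.smul_mul, Matrix.one_mul, Matrix.smul_apply, smul_eq_mul]
  refine ⟨z, Matrix.SpecialLinearGroup.mem_center_iff.mpr ⟨(g.1 f f)⁻¹, by rw [Fintype.card_fin, inv_pow, hdet, inv_one],
    by show _ = (g.1 f f)⁻¹ • (1 : Matrix (Fin n) (Fin n) K)
       rw [Matrix.scalar_apply, Matrix.smul_one_eq_diagonal]⟩, ⟨⟨fun i j hji => ?_, fun i => ?_⟩, ?_⟩⟩
  · show (z * g).1 i j = 0
    rw [hz, hup i j hji, mul_zero]
  · show (z * g).1 i i = 1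
    refine (hz i i).trans ?_
    rw [show g.1 i i = g.1 f f from hdiag i]
    exact inv_mul_cancel₀ hc0
  · rw [hz]
    by_cases h0 : g.1 a b = 0
    · rw [h0, mul_zero]
    · exact absurd ⟨rfl, rfl⟩ (hoff a b (fun h => by rw [h] at hab; omega) h0).2

theorem diagonal_mem (H : Subgroup (SpecialLinearGroup (Fin n) K))
    (hH : ∀ (a b : Fin n) (hab : (b : ℕ) = a + 1) (hne : a ≠ b) (t : K) (ht : t ≠ 0), diag2n hne t ht ∈ H)
    (g : SpecialLinearGroup (Fin n) K) (hg : ∀ i j, i ≠ j → g.1 i j = 0) : g ∈ H := by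
  suffices key : ∀ m : ℕ, ∀ g : SpecialLinearGroup (Fin n) K, (∀ i j, i ≠ j → g.1 i j = 0) →
      (∀ i : Fin n, (i : ℕ) + m < n → g.1 i i = 1) → g ∈ H from key n g hg (fun i hi => by omega)
  intro m
  induction m with
  | zero =>
    intro g hg hd
    have : g = 1 := Subtype.ext (Matrix.ext fun i j => by
      show g.1 i j = (1 : Matrix (Fin n) (Fin n) K) i j
      by_cases hij : i = j
      · subst hij; rw [hd i (by simpa using i.isLt), Matrix.one_apply_eq]
      · rw [hg i j hij, Matrix.one_apply_ne hij])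
    rw [this]; exact one_mem H
  | succ m ih =>
    intro g hg hd
    have hdet : ∏ i, g.1 i i = 1 := by
      exact (Matrix.det_of_isUpperTriangular (M := g.1) (fun i j hij => hg i j (ne_of_gt hij))).symm.trans g.2
    by_cases hm : m + 1 ≤ n ∧ 1 ≤ m
    · have ha : n - (m + 1) < n := by omega
      have hb : n - (m + 1) + 1 < n := by omega
      set a : Fin n := ⟨n - (m + 1), ha⟩ with hadef
      set b : Fin n := ⟨n - (m + 1) + 1, hb⟩ with hbdef
      have hne : a ≠ b := fun h => by rw [hadef, hbdef, Fin.mk.injEq] at h; omega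
      have hga : g.1 a a ≠ 0 := fun h0 => by
        exact zero_ne_one ((Finset.prod_eq_zero (f := fun i => g.1 i i) (Finset.mem_univ a) h0).symm.trans hdet)
      set h := diag2n hne (g.1 a a)⁻¹ (inv_ne_zero hga) with hh
      have hhg : ∀ i j, (h * g).1 i j =
          (if i = a then (g.1 a a)⁻¹ else if i = b then (g.1 a a)⁻¹⁻¹ else 1) * g.1 i j := by
        intro i j
        show (h.1 * g.1) i j = _
        rw [hh, diag2n_coe, Matrix.diagonal_mul]
      have := ih (h * g) (fun i j hij => by rw [hhg, hg i j hij, mul_zero]) (fun i hi => by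
        rw [hhg]
        by_cases hia : i = a
        · subst hia; rw [if_pos rfl, inv_mul_cancel₀ hga]
        · have h1 : (i : ℕ) ≠ n - (m + 1) := fun h' => hia (Fin.ext h')
          rw [if_neg hia, if_neg (fun h' => by rw [h', hbdef] at hi; simp at hi; omega), one_mul]
          exact hd i (by omega))
      have e : g = h⁻¹ * (h * g) := (inv_mul_cancel_left _ _).symm
      rw [e]
      exact mul_mem (inv_mem (hH a b rfl hne _ _)) this
    · refine ih g hg fun i hi => ?_
      by_cases h' : (i : ℕ) + (m + 1) < n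
      · exact hd i h'
      · have hothers : ∀ k, k ≠ i → g.1 k k = 1 := fun k hk => hd k (by
          have h1 : (k : ℕ) ≠ i := fun h => hk (Fin.ext h)
          have := k.isLt
          omega)
        exact ((Finset.prod_eq_single i (fun k _ hk => hothers k hk) (by simp)).symm).trans hdet

end CfsgLib.SLn.Unip
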